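import Mathlib
import Cfsg.Prelude.Def_ChevG2
import Cfsg.Prelude.Def_ChevWords
import Cfsg.Agent.Lib.Helper56.MatSS
import Cfsg.Agent.Lib.Helper56.G22.Data
import Cfsg.Agent.Lib.Helper54.L27

/-! Definitions for the isomorphism of the derived group of `G₂(2)` with `PSU(3, 3)` (helper56). -/

set_option autoImplicit false

namespace Cfsg.Agent.Lib.Helper56.G22

open Cfsg.Lie Matrix Cfsg.Agent.Lib.Helper54

abbrev Ix : Type := chevG2.Idx

def ixN : Ix → ℕ
  | Sum.inl i => i.val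
  | Sum.inr s => 2 + s.val

def decV (m : ℕ) : Ix → ZMod 2 := fun j => if m.testBit (ixN j) then 1 else 0

def pt (m : ℕ) : ℕ := (PT >>> (7 * m)) &&& 127
def xs (i : ℕ) : ℕ := (XT >>> (14 * i)) &&& 16383
def gp (r i : ℕ) : ℕ := (GT >>> (7 * (64 * r + i))) &&& 127

def vecX (i : ℕ) : Ix → ZMod 2 := decV (xs i)

/-- the action of a word on the indices -/
def gw (w : List ℕ) (i : ℕ) : ℕ := w.foldr gp i

def chkM (a m : ℕ) : Bool :=
  Nat.ble 729 m || Nat.beq (pt m) 127 ||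
    (U6.forceN (pt (L27.tfc a m)) fun k => Nat.blt k 63 && Nat.beq (gw (WT.getD a []) (pt m)) k)

def chkT (a : ℕ) : Bool :=
  Nat.ble 729 a || Nat.beq a 0 || !(decide (L27.hf (L27.dec a) (L27.dec a) = 0)) ||
    ((WT.getD a []).all (fun r => Nat.blt r 12) && allB (chkM a) 10 0)

def chkP (m : ℕ) : Bool := Nat.ble 729 m || Nat.beq (pt m) 127 || Nat.blt (pt m) 63

end Cfsg.Agent.Lib.Helper56.G22
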