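import Mathlib
import Cfsg.Agent.Lib.Helper56.G22.Def

/-! Kernel checks for the isomorphism of the derived group of `G₂(2)` with `PSU(3, 3)`, part A (helper56). -/

set_option autoImplicit false
set_option maxRecDepth 100000

namespace Cfsg.Agent.Lib.Helper56.G22

open Cfsg.Lie Matrix Cfsg.Agent.Lib.Helper54

set_option maxHeartbeats 0 in
theorem cA0 : allB chkT 4 0 = true := by decide +kernel
set_option maxHeartbeats 0 in
theorem cA16 : allB chkT 4 16 = true := by decide +kernel
set_option maxHeartbeats 0 in
theorem cA32 : allB chkT 4 32 = true := by decide +kernel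
set_option maxHeartbeats 0 in
theorem cA48 : allB chkT 4 48 = true := by decide +kernel
set_option maxHeartbeats 0 in
theorem cA64 : allB chkT 4 64 = true := by decide +kernel
set_option maxHeartbeats 0 in
theorem cA80 : allB chkT 4 80 = true := by decide +kernel
set_option maxHeartbeats 0 in
theorem cA96 : allB chkT 4 96 = true := by decide +kernel
set_option maxHeartbeats 0 in
theorem cA112 : allB chkT 4 112 = true := by decide +kernel
set_option maxHeartbeats 0 in
theorem cA128 : allB chkT 4 128 = true := by decide +kernel
set_option maxHeartbeats 0 in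
theorem cA144 : allB chkT 4 144 = true := by decide +kernel
set_option maxHeartbeats 0 in
theorem cA160 : allB chkT 4 160 = true := by decide +kernel
set_option maxHeartbeats 0 in
theorem cA176 : allB chkT 4 176 = true := by decide +kernel
set_option maxHeartbeats 0 in
theorem cA192 : allB chkT 4 192 = true := by decide +kernel
set_option maxHeartbeats 0 in
theorem cA208 : allB chkT 4 208 = true := by decide +kernel
set_option maxHeartbeats 0 in
theorem cA224 : allB chkT 4 224 = true := by decide +kernel
set_option maxHeartbeats 0 in
theorem cA240 : allB chkT 4 240 = true := by decide +kernel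

theorem cTA {a : ℕ} (h0 : 0 ≤ a) (ha : a < 256) : chkT a = true := by
  by_cases h0 : a < 16
  · exact allB_spec _ 4 0 cA0 a (by omega) (by norm_num; omega)
  by_cases h16 : a < 32
  · exact allB_spec _ 4 16 cA16 a (by omega) (by norm_num; omega)
  by_cases h32 : a < 48
  · exact allB_spec _ 4 32 cA32 a (by omega) (by norm_num; omega)
  by_cases h48 : a < 64
  · exact allB_spec _ 4 48 cA48 a (by omega) (by norm_num; omega)
  by_cases h64 : a < 80
  · exact allB_spec _ 4 64 cA64 a (by omega) (by norm_num; omega)
  by_cases h80 : a < 96
  · exact allB_spec _ 4 80 cA80 a (by omega) (by norm_num; omega)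
  by_cases h96 : a < 112
  · exact allB_spec _ 4 96 cA96 a (by omega) (by norm_num; omega)
  by_cases h112 : a < 128
  · exact allB_spec _ 4 112 cA112 a (by omega) (by norm_num; omega)
  by_cases h128 : a < 144
  · exact allB_spec _ 4 128 cA128 a (by omega) (by norm_num; omega)
  by_cases h144 : a < 160
  · exact allB_spec _ 4 144 cA144 a (by omega) (by norm_num; omega)
  by_cases h160 : a < 176
  · exact allB_spec _ 4 160 cA160 a (by omega) (by norm_num; omega)
  by_cases h176 : a < 192
  · exact allB_spec _ 4 176 cA176 a (by omega) (by norm_num; omega)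
  by_cases h192 : a < 208
  · exact allB_spec _ 4 192 cA192 a (by omega) (by norm_num; omega)
  by_cases h208 : a < 224
  · exact allB_spec _ 4 208 cA208 a (by omega) (by norm_num; omega)
  by_cases h224 : a < 240
  · exact allB_spec _ 4 224 cA224 a (by omega) (by norm_num; omega)
  exact allB_spec _ 4 240 cA240 a (by omega) (by norm_num; omega)

end Cfsg.Agent.Lib.Helper56.G22
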