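import Mathlib
import Cfsg.Agent.Lib.Helper56.G22.Def

/-! Kernel checks for the isomorphism of the derived group of `G₂(2)` with `PSU(3, 3)`, part C (helper56). -/

set_option autoImplicit false
set_option maxRecDepth 100000

namespace Cfsg.Agent.Lib.Helper56.G22

open Cfsg.Lie Matrix Cfsg.Agent.Lib.Helper54

set_option maxHeartbeats 0 in
theorem cC512 : allB chkT 4 512 = true := by decide +kernel
set_option maxHeartbeats 0 in
theorem cC528 : allB chkT 4 528 = true := by decide +kernel
set_option maxHeartbeats 0 in
theorem cC544 : allB chkT 4 544 = true := by decide +kernel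
set_option maxHeartbeats 0 in
theorem cC560 : allB chkT 4 560 = true := by decide +kernel
set_option maxHeartbeats 0 in
theorem cC576 : allB chkT 4 576 = true := by decide +kernel
set_option maxHeartbeats 0 in
theorem cC592 : allB chkT 4 592 = true := by decide +kernel
set_option maxHeartbeats 0 in
theorem cC608 : allB chkT 4 608 = true := by decide +kernel
set_option maxHeartbeats 0 in
theorem cC624 : allB chkT 4 624 = true := by decide +kernel
set_option maxHeartbeats 0 in
theorem cC640 : allB chkT 4 640 = true := by decide +kernel
set_option maxHeartbeats 0 in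
theorem cC656 : allB chkT 4 656 = true := by decide +kernel
set_option maxHeartbeats 0 in
theorem cC672 : allB chkT 4 672 = true := by decide +kernel
set_option maxHeartbeats 0 in
theorem cC688 : allB chkT 4 688 = true := by decide +kernel
set_option maxHeartbeats 0 in
theorem cC704 : allB chkT 4 704 = true := by decide +kernel
set_option maxHeartbeats 0 in
theorem cC720 : allB chkT 4 720 = true := by decide +kernel

theorem cTC {a : ℕ} (h0 : 512 ≤ a) (ha : a < 736) : chkT a = true := by
  by_cases h512 : a < 528
  · exact allB_spec _ 4 512 cC512 a (by omega) (by norm_num; omega)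
  by_cases h528 : a < 544
  · exact allB_spec _ 4 528 cC528 a (by omega) (by norm_num; omega)
  by_cases h544 : a < 560
  · exact allB_spec _ 4 544 cC544 a (by omega) (by norm_num; omega)
  by_cases h560 : a < 576
  · exact allB_spec _ 4 560 cC560 a (by omega) (by norm_num; omega)
  by_cases h576 : a < 592
  · exact allB_spec _ 4 576 cC576 a (by omega) (by norm_num; omega)
  by_cases h592 : a < 608
  · exact allB_spec _ 4 592 cC592 a (by omega) (by norm_num; omega)
  by_cases h608 : a < 624
  · exact allB_spec _ 4 608 cC608 a (by omega) (by norm_num; omega)
  by_cases h624 : a < 640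
  · exact allB_spec _ 4 624 cC624 a (by omega) (by norm_num; omega)
  by_cases h640 : a < 656
  · exact allB_spec _ 4 640 cC640 a (by omega) (by norm_num; omega)
  by_cases h656 : a < 672
  · exact allB_spec _ 4 656 cC656 a (by omega) (by norm_num; omega)
  by_cases h672 : a < 688
  · exact allB_spec _ 4 672 cC672 a (by omega) (by norm_num; omega)
  by_cases h688 : a < 704
  · exact allB_spec _ 4 688 cC688 a (by omega) (by norm_num; omega)
  by_cases h704 : a < 720
  · exact allB_spec _ 4 704 cC704 a (by omega) (by norm_num; omega)
  exact allB_spec _ 4 720 cC720 a (by omega) (by norm_num; omega)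

end Cfsg.Agent.Lib.Helper56.G22
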