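import Mathlib
import Cfsg.Agent.Lib.Helper56.G22.Def

/-! Kernel checks for the isomorphism of the derived group of `G₂(2)` with `PSU(3, 3)`, part G (helper56). -/

set_option autoImplicit false
set_option maxRecDepth 100000

namespace Cfsg.Agent.Lib.Helper56.G22

open Cfsg.Lie Matrix Cfsg.Agent.Lib.Helper54

set_option maxHeartbeats 0 in
theorem cG0 : ∀ i < 63, chevG2.x (ZMod 2) 0 1 *ᵥ vecX i = vecX (gp 0 i) := by decide +kernel
set_option maxHeartbeats 0 in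
theorem cG1 : ∀ i < 63, chevG2.x (ZMod 2) 1 1 *ᵥ vecX i = vecX (gp 1 i) := by decide +kernel
set_option maxHeartbeats 0 in
theorem cG2 : ∀ i < 63, chevG2.x (ZMod 2) 2 1 *ᵥ vecX i = vecX (gp 2 i) := by decide +kernel
set_option maxHeartbeats 0 in
theorem cG3 : ∀ i < 63, chevG2.x (ZMod 2) 3 1 *ᵥ vecX i = vecX (gp 3 i) := by decide +kernel
set_option maxHeartbeats 0 in
theorem cG4 : ∀ i < 63, chevG2.x (ZMod 2) 4 1 *ᵥ vecX i = vecX (gp 4 i) := by decide +kernel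
set_option maxHeartbeats 0 in
theorem cG5 : ∀ i < 63, chevG2.x (ZMod 2) 5 1 *ᵥ vecX i = vecX (gp 5 i) := by decide +kernel
set_option maxHeartbeats 0 in
theorem cG6 : ∀ i < 63, chevG2.x (ZMod 2) 6 1 *ᵥ vecX i = vecX (gp 6 i) := by decide +kernel
set_option maxHeartbeats 0 in
theorem cG7 : ∀ i < 63, chevG2.x (ZMod 2) 7 1 *ᵥ vecX i = vecX (gp 7 i) := by decide +kernel
set_option maxHeartbeats 0 in
theorem cG8 : ∀ i < 63, chevG2.x (ZMod 2) 8 1 *ᵥ vecX i = vecX (gp 8 i) := by decide +kernel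
set_option maxHeartbeats 0 in
theorem cG9 : ∀ i < 63, chevG2.x (ZMod 2) 9 1 *ᵥ vecX i = vecX (gp 9 i) := by decide +kernel
set_option maxHeartbeats 0 in
theorem cG10 : ∀ i < 63, chevG2.x (ZMod 2) 10 1 *ᵥ vecX i = vecX (gp 10 i) := by decide +kernel
set_option maxHeartbeats 0 in
theorem cG11 : ∀ i < 63, chevG2.x (ZMod 2) 11 1 *ᵥ vecX i = vecX (gp 11 i) := by decide +kernel

theorem gen_act : ∀ r < 12, ∀ i < 63, chevG2.x (ZMod 2) r 1 *ᵥ vecX i = vecX (gp r i) := by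
  intro r hr
  interval_cases r
  exacts [cG0, cG1, cG2, cG3, cG4, cG5, cG6, cG7, cG8, cG9, cG10, cG11]

theorem gp_lt : ∀ r < 12, ∀ i < 63, gp r i < 63 := by decide +kernel

theorem cP : allB chkP 10 0 = true := by decide +kernel

theorem cREP : ∀ i < 63, pt (L27.enc (L27.dec (REP.getD i 0))) = i := by decide +kernel

theorem cSP : ∀ j : Ix, ((SP.getD (ixN j) []).map vecX).sum = Pi.single j 1 ∧
    ∀ i ∈ SP.getD (ixN j) [], i < 63 := by decide +kernel

theorem cNR : L27.hf (L27.dec 13) (L27.dec 13) = 0 ∧ pt (L27.enc (L27.dec 1)) ≠ 127 ∧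
    vecX (pt (L27.enc (L27.dec 1))) ≠ vecX (pt (L27.enc (L27.tf 13 (L27.dec 1)))) := by
  decide +kernel

end Cfsg.Agent.Lib.Helper56.G22
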