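import Mathlib
import Cfsg.Agent.Lib.Helper56.G22.ChkA
import Cfsg.Agent.Lib.Helper56.G22.ChkB
import Cfsg.Agent.Lib.Helper56.G22.ChkC
import Cfsg.Agent.Lib.Helper56.G22.ChkG

/-! Kernel checks for the isomorphism of the derived group of `G₂(2)` with `PSU(3, 3)` (helper56). -/

set_option autoImplicit false

namespace Cfsg.Agent.Lib.Helper56.G22

theorem cT {a : ℕ} (ha : a < 729) : chkT a = true := by
  by_cases h1 : a < 256
  · exact cTA (Nat.zero_le _) h1
  by_cases h2 : a < 512
  · exact cTB (by omega) h2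
  · exact cTC (by omega) (by omega)

end Cfsg.Agent.Lib.Helper56.G22
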