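import Mathlib
import Cfsg.Agent.Lib.Helper56.G22.Chk
import Cfsg.Agent.Lib.Helper54.L27
import Cfsg.Agent.Lib.Helper54.RelIso
import Cfsg.Agent.Lib.Helper54.RelHom
import Cfsg.Agent.Lib.Helper54.PSUCongr
import Cfsg.Agent.Lib.Helper5.SUSimple
import Cfsg.Agent.Lib.Helper5.SUCenter
import Cfsg.Agent.Lib.Helper18.ChevFinal
import Cfsg.Agent.Lib.Helper27.ChevIso
import Cfsg.Agent.Lib.Helper66.FibreProd
import Cfsg.Agent.S0280
import Cfsg.Agent.S0780
import Cfsg.Agent.S1059

/-!
The derived group of `G₂(2)` is isomorphic to `PSU(3, 3)` (helper56).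
-/

set_option autoImplicit false

namespace Cfsg.Agent.Lib.Helper56.G22

open Matrix Cfsg Cfsg.Lie Cfsg.Agent.Lib.Helper5 Cfsg.Agent.Lib.Helper13 Cfsg.Agent.Lib.Helper18
  Cfsg.Agent.Lib.Helper54 Cfsg.Agent.Lib.Helper54.K9
open Cfsg.Agent.Lib.Helper54.L27 (VV hf dec enc dec_enc c0 hc0 tvc tf tvc_mulVec tfc)
open Cfsg.Agent.Lib.Helper54.U6 (forceN forceN_eq)

/-- the special unitary group -/
abbrev U : Type := ↥(Cfsg.SU 3 K9 3)

/-- the Chevalley group -/
abbrev G : Type := ↥(chevG2.group (ZMod 2))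

theorem hB : Base chevG2 (ZMod 2) := base_of_mem (ZMod 2) (by simp)

theorem card_G : Nat.card G = 12096 := by
  have h := Cfsg.Agent.S1059.result (F := ZMod 2) (q := 2) (ZMod.card 2)
  rw [h]
  norm_num

instance : Finite G := Nat.finite_of_card_ne_zero (by rw [card_G]; norm_num)

theorem card_PSU : Nat.card (Cfsg.PSU 3 K9 3) = 6048 := by
  have h := Cfsg.Agent.S0280.result (F := K9) (q := 3) card_eq' 3 (by norm_num)
  have e : (3 : ℕ) ^ (3 * (3 - 1) / 2) * ∏ i ∈ Finset.range 3,
      (if Even i then 3 ^ (i + 1) + 1 else 3 ^ (i + 1) - 1) = 24192 := by decide +kernel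
  rw [e] at h
  have g : Nat.gcd 3 (3 + 1) = 1 := by decide
  rw [g] at h
  generalize Nat.card (Cfsg.PSU 3 K9 3) = c at h ⊢
  omega

theorem center_U : Subgroup.center U = ⊥ := by
  have h := card_center_SU (F := K9) (q := 3) (n := 3) card_eq' (by norm_num)
  have g : Nat.gcd 3 (3 + 1) = 1 := by decide
  rw [g] at h
  exact Subgroup.card_eq_one.1 h

theorem card_U : Nat.card U = 6048 := by
  rw [Subgroup.card_eq_card_quotient_mul_card_subgroup (Subgroup.center U), card_PSU, center_U,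
    Subgroup.card_bot]

theorem enc_lt (v : VV) : enc v < 729 := by
  have h0 := toN_lt (v 0)
  have h1 := toN_lt (v 1)
  have h2 := toN_lt (v 2)
  unfold enc
  omega

theorem pt_lt {m : ℕ} (hm : m < 729) (h : pt m ≠ 127) : pt m < 63 := by
  have h1 := allB_spec _ 10 0 cP m (Nat.zero_le _) (by norm_num; omega)
  simp only [chkP, Bool.or_eq_true, Nat.ble_eq, Nat.beq_eq, Nat.blt_eq] at h1
  rcases h1 with (h1 | h1) | h1
  · omega
  · exact absurd h1 h
  · exact h1

/-- compatibility of a matrix over the field with two elements and a unitary matrix -/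
def Rel (g : GL Ix (ZMod 2)) (u : U) : Prop :=
  ∀ v : VV, pt (enc v) ≠ 127 → pt (enc (u.1.1 *ᵥ v)) ≠ 127 ∧
    g.1 *ᵥ vecX (pt (enc v)) = vecX (pt (enc (u.1.1 *ᵥ v)))

theorem Rel.one : Rel 1 1 := fun v hv => by
  rw [SU_one_mulVec, Units.val_one, Matrix.one_mulVec]
  exact ⟨hv, rfl⟩

theorem Rel.mul {g g' : GL Ix (ZMod 2)} {u u' : U} (h : Rel g u) (h' : Rel g' u') :
    Rel (g * g') (u * u') := by
  intro v hv
  obtain ⟨a1, a2⟩ := h' v hv
  obtain ⟨b1, b2⟩ := h _ a1
  rw [SU_mul_mulVec, Units.val_mul, ← Matrix.mulVec_mulVec, a2, b2]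
  exact ⟨b1, rfl⟩

/-- the compatible pairs -/
def relMonoid : Submonoid (G × U) where
  carrier := {p | Rel p.1.1 p.2}
  one_mem' := Rel.one
  mul_mem' := fun ha hb => Rel.mul ha hb

instance finite_U : Finite U := inferInstance

/-- the compatible pairs -/
def RR : Subgroup (G × U) := subgroupOfSubmonoid relMonoid

theorem mem_RR {x : G} {u : U} : (x, u) ∈ RR ↔ Rel x.1 u := Iff.rfl

/-- products of root elements -/
def wg (w : List ℕ) : GL Ix (ZMod 2) := (w.map fun r => hB.xg r 1).prod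

theorem wg_mem (w : List ℕ) (hw : ∀ r ∈ w, r < 12) : wg w ∈ chevG2.group (ZMod 2) := by
  induction w with
  | nil => exact one_mem _
  | cons r w ih =>
    have e : wg (r :: w) = hB.xg r 1 * wg w := by simp [wg]
    rw [e]
    exact mul_mem (hB.xg_mem_group (hw r List.mem_cons_self) 1)
      (ih fun s hs => hw s (List.mem_cons_of_mem _ hs))

theorem wg_act (w : List ℕ) (hw : ∀ r ∈ w, r < 12) {i : ℕ} (hi : i < 63) :
    gw w i < 63 ∧ (wg w).1 *ᵥ vecX i = vecX (gw w i) := by
  induction w with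
  | nil =>
    refine ⟨hi, ?_⟩
    have e : wg [] = 1 := by simp [wg]
    rw [e, Units.val_one, Matrix.one_mulVec]
    rfl
  | cons r w ih =>
    obtain ⟨a1, a2⟩ := ih fun s hs => hw s (List.mem_cons_of_mem _ hs)
    have hr := hw r List.mem_cons_self
    have e : wg (r :: w) = hB.xg r 1 * wg w := by simp [wg]
    have e2 : gw (r :: w) i = gp r (gw w i) := rfl
    rw [e, e2, Units.val_mul, ← Matrix.mulVec_mulVec, a2]
    exact ⟨gp_lt r hr _ a1, gen_act r hr _ a1⟩

theorem tv_partner (v : VV) (hv0 : v ≠ 0) (hv : hf v v = 0) :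
    ∃ x : G, (x, tSU card_eq' v c0 hv hc0) ∈ RR := by
  have ha := enc_lt v
  have h := cT ha
  simp only [chkT, Bool.or_eq_true, Nat.ble_eq, Nat.beq_eq, Bool.not_eq_true',
    decide_eq_false_iff_not, Bool.and_eq_true, dec_enc, List.all_eq_true, Nat.blt_eq] at h
  rcases h with ((h | h) | h) | ⟨h1, h2⟩
  · omega
  · exfalso
    apply hv0
    rw [← dec_enc v, h]
    funext i
    fin_cases i <;> rfl
  · exact absurd hv h
  · refine ⟨⟨wg (WT.getD (enc v) []), wg_mem _ h1⟩, ?_⟩
    rw [mem_RR]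
    intro x hx
    have hm := enc_lt x
    have h3 := allB_spec _ 10 0 h2 (enc x) (Nat.zero_le _) (by norm_num; omega)
    simp only [chkM, Bool.or_eq_true, Nat.ble_eq, Nat.beq_eq, forceN_eq, Bool.and_eq_true,
      Nat.blt_eq] at h3
    rcases h3 with (h3 | h3) | ⟨h3, h4⟩
    · omega
    · exact absurd h3 hx
    · have e : enc ((tSU card_eq' v c0 hv hc0).1.1 *ᵥ x) = tfc (enc v) (enc x) := by
        rw [tSU_mulVec, tfc, forceN_eq, dec_enc, tf, dec_enc]
      rw [e]
      refine ⟨by omega, ?_⟩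
      rw [(wg_act _ h1 (pt_lt hm hx)).2, h4]

set_option maxRecDepth 100000 in
theorem skew_key : ∀ c : K9, c + c ^ 3 = 0 → c = 0 ∨ ∃ l : K9, l ≠ 0 ∧ c = c0 * l ^ 3 * l := by
  decide +kernel

theorem partner_of_ut (A : U) (hA : A ∈ {A : U | ∃ (v : Fin 3 → K9) (c : K9),
    Cfsg.hermForm 3 K9 3 v v = 0 ∧
    ((A : Matrix.SpecialLinearGroup (Fin 3) K9) : Matrix (Fin 3) (Fin 3) K9)
      = Cfsg.unitaryTransvection 3 3 v c}) : ∃ x : G, (x, A) ∈ RR := by
  obtain ⟨v, c, hv, hA⟩ := hA
  by_cases hv0 : v = 0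
  · have : A = 1 := by
      apply SU_ext_mulVec
      intro x
      rw [hA, unitaryTransvection_mulVec, hv0, SU_one_mulVec]; simp
    rw [this]
    exact ⟨1, RR.one_mem⟩
  · have hc := skew_of_ut_mem card_eq' A hv0 hv hA
    rcases skew_key c hc with rfl | ⟨l, hl, rfl⟩
    · have : A = 1 := by
        apply SU_ext_mulVec
        intro x
        rw [hA, unitaryTransvection_mulVec, SU_one_mulVec]; simp
      rw [this]
      exact ⟨1, RR.one_mem⟩
    · have hlv : hf (l • v) (l • v) = 0 := by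
        rw [hf, hermForm_smul_left, hermForm_smul_right, hv]; simp
      have : A = tSU card_eq' (l • v) c0 hlv hc0 := by
        apply SU_ext_mulVec
        intro x
        rw [hA, unitaryTransvection_mulVec, tSU_mulVec, hermForm_smul_right]
        module
      rw [this]
      exact tv_partner (l • v) (smul_ne_zero hl hv0) hlv

theorem total (u : U) : ∃ x : G, (x, u) ∈ RR :=
  partners_of_closure RR _ (Cfsg.Agent.S0780.result card_eq' 3 (by norm_num) (by norm_num))
    partner_of_ut u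

theorem sum_fix (M : Matrix Ix Ix (ZMod 2)) (h : ∀ i < 63, M *ᵥ vecX i = vecX i) (l : List ℕ)
    (hl : ∀ i ∈ l, i < 63) : M *ᵥ (l.map vecX).sum = (l.map vecX).sum := by
  induction l with
  | nil => simp
  | cons i l ih =>
    rw [List.map_cons, List.sum_cons, Matrix.mulVec_add, h i (hl i List.mem_cons_self),
      ih fun j hj => hl j (List.mem_cons_of_mem _ hj)]

theorem functional (x : G) (h : (x, (1 : U)) ∈ RR) : x = 1 := by
  rw [mem_RR] at h
  have h1 : ∀ i < 63, x.1.1 *ᵥ vecX i = vecX i := by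
    intro i hi
    have e := cREP i hi
    have h2 := (h (dec (REP.getD i 0)) (by rw [e]; omega)).2
    rw [SU_one_mulVec, e] at h2
    exact h2
  apply Subtype.ext
  apply Units.ext
  ext i j
  obtain ⟨s1, s2⟩ := cSP j
  have h3 := sum_fix _ h1 _ s2
  rw [s1] at h3
  have h4 := congrFun h3 i
  rw [Matrix.mulVec_single_one] at h4
  show x.1.1 i j = (1 : Matrix Ix Ix (ZMod 2)) i j
  rw [Matrix.one_apply, ← Matrix.col_apply x.1.1 j i, h4, Pi.single_apply]

/-- the relation with the factors exchanged -/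
def RS : Subgroup (U × G) := RR.comap (MulEquiv.prodComm : U × G ≃* G × U).toMonoidHom

theorem mem_RS {x : G} {u : U} : (u, x) ∈ RS ↔ (x, u) ∈ RR := Iff.rfl

theorem exists_hom : ∃ ψ : U →* G, Function.Injective ψ := by
  obtain ⟨ψ, hψ⟩ := hom_of_relation RS (fun u => by
    obtain ⟨x, hx⟩ := total u
    exact ⟨x, hx⟩) (fun x hx => functional x hx)
  refine ⟨ψ, ?_⟩
  rw [← MonoidHom.ker_eq_bot_iff]
  rcases su_normal_le_center_or (F := K9) (q := 3) (n := 3) card_eq' (by norm_num) (by norm_num)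
    ψ.ker with h | h
  · rw [center_U] at h
    exact le_bot_iff.1 h
  · exfalso
    have h1 : tvc 13 ∈ ψ.ker := by rw [h]; trivial
    have h2 : (tvc 13, (1 : G)) ∈ RS := (hψ _ _).2 h1
    rw [mem_RS, mem_RR] at h2
    obtain ⟨n1, n2, n3⟩ := cNR
    have h3 := (h2 (dec 1) n2).2
    rw [tvc_mulVec n1] at h3
    apply n3
    rw [← h3]
    show _ = (1 : Matrix Ix Ix (ZMod 2)) *ᵥ _
    rw [Matrix.one_mulVec]

theorem main0 : Nonempty (↥(commutator G) ≃* Cfsg.PSU 3 K9 3) := by
  obtain ⟨ψ, hinj⟩ := exists_hom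
  have c1 : Nat.card ψ.range = 6048 := by
    rw [← Nat.card_congr (MonoidHom.ofInjective hinj).toEquiv, card_U]
  have c2 : ψ.range.index = 2 := by
    have := Subgroup.card_mul_index ψ.range
    rw [c1, card_G] at this
    omega
  have hle : ψ.range ≤ commutator G := by
    rw [MonoidHom.range_eq_map, ← su_commutator_eq_top (F := K9) (q := 3) (n := 3) card_eq'
      (by norm_num) (by norm_num), commutator_def, Subgroup.map_commutator, commutator_def]
    exact Subgroup.commutator_mono le_top le_top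
  have hge : commutator G ≤ ψ.range := by
    haveI : ψ.range.Normal := Subgroup.normal_of_index_eq_two c2
    haveI : Fact (Nat.Prime 2) := ⟨Nat.prime_two⟩
    have hc : Nat.card (G ⧸ ψ.range) = 2 := c2
    haveI := isCyclic_of_prime_card hc
    letI := IsCyclic.commGroup (α := G ⧸ ψ.range)
    have := Abelianization.commutator_subset_ker (QuotientGroup.mk' ψ.range)
    rwa [QuotientGroup.ker_mk'] at this
  have heq : commutator G = ψ.range := le_antisymm hge hle
  exact ⟨((MulEquiv.subgroupCongr heq).trans (MonoidHom.ofInjective hinj).symm).trans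
    ((QuotientGroup.quotientMulEquivOfEq center_U).trans QuotientGroup.quotientBot).symm⟩

theorem commutator_congr {A B : Type*} [Group A] [Group B] (e : A ≃* B) :
    Nonempty (↥(commutator A) ≃* ↥(commutator B)) :=
  ⟨(e.subgroupMap (commutator A)).trans (MulEquiv.subgroupCongr
    (Cfsg.Agent.Lib.Helper66.map_commutator_eq_of_surjective e.toMonoidHom e.surjective))⟩

theorem main {F K : Type*} [Field F] [Fintype F] [Field K] [Fintype K] (hF : Fintype.card F = 2)
    (hK : Fintype.card K = 9) :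
    Nonempty (↥(commutator ↥(Cfsg.Lie.chevG2.group F)) ≃* Cfsg.PSU 3 K 3) := by
  obtain ⟨e0⟩ := main0
  obtain ⟨f⟩ := psu_congr_of_card (F := K9) (K := K) (by rw [hK]; exact K9.card_eq) 3 3
  have g : F ≃+* ZMod 2 := FiniteField.ringEquivOfCardEq (by rw [hF, ZMod.card])
  obtain ⟨e1⟩ := commutator_congr (Cfsg.Agent.Lib.Helper27.ChevIso.groupIso chevG2 g)
  exact ⟨(e1.trans e0).trans f⟩

end Cfsg.Agent.Lib.Helper56.G22
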